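import Cfsg.Agent.H226.R2.Base
import Cfsg.Agent.H776.CY.Congr
import Cfsg.Agent.R08.AutT

/-!
# S4829, `p = 2`: the row `Fi22` (helper644)

The 3510 transpositions: rank three, even degree, preserved by all automorphisms.
-/

set_option autoImplicit false

namespace Cfsg.Agent.H644.R2.Fi22

open Cfsg Cfsg.Agent.H226.R2 Cfsg.Agent.H770.CY MulAction

/-- the transpositions -/
def X : Type := {t : Spor.Fi22 // t ∈ R08.AutT.T}

theorem conj_mem {t : Spor.Fi22} (ht : t ∈ R08.AutT.T) (g : Spor.Fi22) : g * t * g⁻¹ ∈ R08.AutT.T :=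
  R08.AutT.tFacts.conj g t ht

instance : MulAction Spor.Fi22 X where
  smul g t := ⟨g * t.1 * g⁻¹, conj_mem t.2 g⟩
  one_smul t := Subtype.ext (by show 1 * t.1 * 1⁻¹ = t.1; group)
  mul_smul g h t := Subtype.ext (by show g * h * t.1 * (g * h)⁻¹ = g * (h * t.1 * h⁻¹) * g⁻¹; group)

theorem smul_val (g : Spor.Fi22) (t : X) : (g • t).1 = g * t.1 * g⁻¹ := rfl

instance : Finite X := inferInstanceAs (Finite {t : Spor.Fi22 // t ∈ R08.AutT.T})

theorem card_X : Nat.card X = 3510 := by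
  have h := R01.Fi22Facts.ncard_T
  rw [← Nat.card_coe_set_eq] at h
  exact h

instance : Nonempty X := by
  have h : 0 < Nat.card X := by rw [card_X]; norm_num
  exact (Finite.card_pos_iff).1 h

instance : IsPretransitive Spor.Fi22 X where
  exists_smul_eq x y := by
    obtain ⟨-, ⟨d, hd, hD⟩, -⟩ := R01.Fi22Facts.isThreeTranspositionClass_T
    have hx : x.1 ∈ conjugatesOf d := by rw [← hD]; exact x.2
    have hy : y.1 ∈ conjugatesOf d := by rw [← hD]; exact y.2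
    have h1 : IsConj x.1 y.1 := (show IsConj d x.1 from hx).symm.trans (show IsConj d y.1 from hy)
    obtain ⟨g, hg⟩ := isConj_iff.1 h1
    exact ⟨g, Subtype.ext hg⟩

theorem rank_le : Nat.card (Quotient (orbitRel Spor.Fi22 (X × X))) ≤ 3 := by
  classical
  obtain ⟨x⟩ := (inferInstance : Nonempty X)
  rw [H707.Rank.card_orbits_prod x (stabilizer Spor.Fi22 x) fun g => mem_stabilizer_iff]
  -- representatives
  obtain ⟨b, hb⟩ : ∃ b : X, (∃ y : X, x.1 ≠ y.1 ∧ Commute x.1 y.1) → x.1 ≠ b.1 ∧ Commute x.1 b.1 := by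
    by_cases h : ∃ y : X, x.1 ≠ y.1 ∧ Commute x.1 y.1
    · exact ⟨h.choose, fun _ => h.choose_spec⟩
    · exact ⟨x, fun h' => absurd h' h⟩
  obtain ⟨c, hc⟩ : ∃ c : X, (∃ y : X, ¬ Commute x.1 y.1) → ¬ Commute x.1 c.1 := by
    by_cases h : ∃ y : X, ¬ Commute x.1 y.1
    · exact ⟨h.choose, fun _ => h.choose_spec⟩
    · exact ⟨x, fun h' => absurd h' h⟩
  refine H707.Rank.card_orbits_le X ![x, b, c] fun y => ?_
  by_cases hxy : x.1 = y.1
  · refine ⟨0, ?_⟩
    rw [← Subtype.ext hxy]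
    exact mem_orbit_self x
  by_cases hcom : Commute x.1 y.1
  · obtain ⟨h1, h2⟩ := hb ⟨y, hxy, hcom⟩
    obtain ⟨k, hk1, hk2⟩ := R01.Fi22Facts.trans_commuting x.1 x.2 b.1 b.2 x.1 x.2 y.1 y.2 h1 hxy h2 hcom
    exact ⟨1, ⟨⟨k, mem_stabilizer_iff.2 (Subtype.ext hk1)⟩, Subtype.ext hk2⟩⟩
  · have h1 := hc ⟨y, hcom⟩
    obtain ⟨k, hk1, hk2⟩ := R01.Fi22Facts.trans_noncommuting x.1 x.2 c.1 c.2 x.1 x.2 y.1 y.2 h1 hcom
    exact ⟨2, ⟨⟨k, mem_stabilizer_iff.2 (Subtype.ext hk1)⟩, Subtype.ext hk2⟩⟩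

/-- an automorphism on the transpositions -/
def fX (b : MulAut Spor.Fi22) : X ≃ X where
  toFun t := ⟨b t.1, R08.AutT.aut_mem b t.2⟩
  invFun t := ⟨b⁻¹ t.1, R08.AutT.aut_mem b⁻¹ t.2⟩
  left_inv _ := Subtype.ext (MulAut.inv_apply_self _ _ _)
  right_inv _ := Subtype.ext (MulAut.apply_inv_self _ _ _)

theorem row : Row2 Spor.Fi22 := by
  have hft : Fintype Spor.Fi22 := Fintype.ofFinite _
  have h1 := ratInv_of_rank_three (S := Spor.Fi22) X (by rw [card_X]; decide) rank_le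
  refine row2_of_odd_index (Γ := ⊤) (by rw [Subgroup.index_top]; decide) (h1.mono fun b _ => ?_)
  refine mem_stab_perm (fX b) (fun s x => Subtype.ext ?_) 1
  show b (s * x.1 * s⁻¹) = b s * b x.1 * (b s)⁻¹
  rw [map_mul, map_mul, map_inv]

theorem row_of {K : Type*} [Group K] (h : Spor.IsoFi22 K) : Row2 K := by
  obtain ⟨e⟩ := h
  exact H776.CY.Row2.congr e row

theorem rowFor2 : RowFor2 (fun X _ => Spor.IsoFi22 X) := fun _ _ _ _ _ h => row_of h

end Cfsg.Agent.H644.R2.Fi22
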