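import Cfsg.Agent.H69.OutGF
import Cfsg.Agent.H644.R2.Pres
import Cfsg.Agent.Nodes.RGDChev
import Cfsg.Agent.KFacts.RgdFilt

/-!
# No graph automorphism of `G₂(q)`, `q` even (S4829, helper644)

`G2_fix` : an automorphism of `G₂(q)` (`3 ≠ 0`, `q ≥ 3`) fixing `B` fixes the parabolic subgroups `P_i`.
-/

set_option autoImplicit false
set_option linter.unusedSectionVars false

namespace Cfsg.Agent.H644.R2

open scoped Pointwise
open CoxeterSystem Cfsg.Agent.ChevalleyStructure.CoxeterGeom Cfsg.Agent.Tits.Roots Cfsg.Agent.Tits.Core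
  Cfsg.Agent.Nodes.Reps Cfsg.Agent.Nodes.BNOf Cfsg.Agent.Nodes.Bruhat Cfsg.Agent.Nodes.LeviDec
open Cfsg Cfsg.Lie Cfsg.Agent.ChevalleyStructure Cfsg.Agent.Nodes Cfsg.Agent.Nodes.RGDChev
open Cfsg.Agent.Omega.EH3.Kf.Lev (CommGen)
open Cfsg.Agent.H70.ChevFix Cfsg.Agent.H70.ChevField Cfsg.Agent.H70.OutCount Cfsg.Agent.H69.OutGF

universe u

theorem isType_G2 : IsType chevG2 2 CoxeterMatrix.G₂ := by simp [IsType, typeList]

variable {K : Type u} [Field K]

theorem XX_simple {D : ChevalleyDatum} {l : ℕ} {M : CoxeterMatrix (Fin l)} (hp : IsType D l M) (i : Fin l) :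
    (XV D l K (sr i)).subgroupOf (D.group K) = XX D K (D.simple i) := by
  rw [XV_sr hp]

theorem XX_neg_simple {D : ChevalleyDatum} {l : ℕ} {M : CoxeterMatrix (Fin l)} (hp : IsType D l M) (i : Fin l) :
    (XV D l K (-sr i)).subgroupOf (D.group K) = XX D K (D.neg (D.simple i)) := by
  rw [XV_neg_sr hp]

theorem smul_eq_map {G : Type*} [Group G] (a : MulAut G) (H : Subgroup G) : a • H = H.map a.toMonoidHom := rfl

/-- every automorphism of `G₂(q)` fixes, up to an inner automorphism, all the root groups `X_{± i}` -/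
theorem G2_perm [Finite K] (h3 : (3 : K) ≠ 0) (hq : 3 ≤ Nat.card K) (β : MulAut ↥(chevG2.group K)) :
    ∃ g : ↥(chevG2.group K),
      (∀ i : Fin 2, ((XV chevG2 2 K (sr i)).subgroupOf (chevG2.group K)).map (MulAut.conj g * β).toMonoidHom =
        (XV chevG2 2 K (sr i)).subgroupOf (chevG2.group K)) ∧
      ∀ i : Fin 2, ((XV chevG2 2 K (-sr i)).subgroupOf (chevG2.group K)).map (MulAut.conj g * β).toMonoidHom =
        (XV chevG2 2 K (-sr i)).subgroupOf (chevG2.group K) := by
  obtain ⟨g, π, -, -, h1, h2⟩ := exists_conj_perm (F := K) hG2 β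
  have hπ : π = 1 := by
    rcases perm2 π with h | h
    · exact h
    · have h' : π = flip2 := h
      rw [h'] at h1 h2
      exact absurd ⟨_, ⟨h1, h2⟩⟩ (flip2_not_mem h3 hq)
  subst hπ
  refine ⟨g, fun i => ?_, fun i => ?_⟩
  · rw [XX_simple isType_G2, ← smul_eq_map]
    exact h1 i
  · rw [XX_neg_simple isType_G2, ← smul_eq_map]
    exact h2 i

/-- **an automorphism of `G₂(q)` fixing `B` fixes `P_i`** -/
theorem G2_fix [Finite K] (h3 : (3 : K) ≠ 0) (hq : 3 ≤ Nat.card K)
    (hC : CommGen CoxeterMatrix.G₂.toCoxeterSystem isType_G2.isCartan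
      (fun x => (XV chevG2 2 K x).subgroupOf (chevG2.group K)))
    {β : MulAut ↥(chevG2.group K)}
    (hβ : (RGD.B CoxeterMatrix.G₂.toCoxeterSystem isType_G2.isCartan ((chevG2.diagonalSubgroup K).subgroupOf (chevG2.group K))
      (fun x => (XV chevG2 2 K x).subgroupOf (chevG2.group K))).map β.toMonoidHom =
      RGD.B CoxeterMatrix.G₂.toCoxeterSystem isType_G2.isCartan ((chevG2.diagonalSubgroup K).subgroupOf (chevG2.group K))
      (fun x => (XV chevG2 2 K x).subgroupOf (chevG2.group K))) (i : Fin 2) :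
    (PJ CoxeterMatrix.G₂.toCoxeterSystem isType_G2.isCartan ((chevG2.diagonalSubgroup K).subgroupOf (chevG2.group K))
      (fun x => (XV chevG2 2 K x).subgroupOf (chevG2.group K)) {i}).map β.toMonoidHom =
    PJ CoxeterMatrix.G₂.toCoxeterSystem isType_G2.isCartan ((chevG2.diagonalSubgroup K).subgroupOf (chevG2.group K))
      (fun x => (XV chevG2 2 K x).subgroupOf (chevG2.group K)) {i} := by
  obtain ⟨p, hc⟩ := CharP.exists K
  have hp : Fact p.Prime := ⟨(CharP.char_is_prime_or_zero K p).resolve_right (CharP.char_ne_zero_of_finite K p)⟩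
  have : Finite CoxeterMatrix.G₂.Group := finite_W isType_G2 CoxeterMatrix.G₂.toCoxeterSystem
  have R := Cfsg.Agent.Nodes.RGDChev.rgd (K := K) isType_G2 CoxeterMatrix.G₂.toCoxeterSystem p
  have hG := Cfsg.Agent.KFacts.RgdFilt.GG_eq_top (T := (chevG2.diagonalSubgroup K).subgroupOf (chevG2.group K))
    (Cfsg.Agent.Nodes.RGDChev.G1_eq_top (K := K) isType_G2 CoxeterMatrix.G₂.toCoxeterSystem)
  obtain ⟨g, h1, h2⟩ := G2_perm h3 hq β
  exact map_PJ_of_conj R hG hC hβ h1 h2 i

end Cfsg.Agent.H644.R2
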