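import Cfsg.Agent.H619.Gow.SLNode
import Cfsg.Agent.H928.Ad.Grp

/-!
# Parametrised nodes and the adjoint group (S4829, `p = 2`, helper644)

* `nd_emb` : a node of `Y` gives a node of `Gad D`;
* `card_X` : `|X_i| = |F|`;
* `fix_of_deg` : a permutation preserving the Coxeter matrix fixes the unique node with three neighbours.
-/

set_option autoImplicit false
set_option linter.unusedSectionVars false

open Cfsg

namespace Cfsg.Agent.H644.R2

open CoxeterSystem Cfsg.Agent.ChevalleyStructure.CoxeterGeom Cfsg.Agent.Tits.Roots Cfsg.Agent.Tits.Core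
  Cfsg.Agent.Nodes.Reps Cfsg.Agent.Nodes.BNOf Cfsg.Agent.H928.Ad Cfsg.Agent.H619.Gow
open Cfsg.Agent.ChevalleyStructure.SL2Hom (up lo)
open Cfsg.Agent.Nodes.RGDFoldSL (wS hS)

local notation "SL2 " F => Matrix.SpecialLinearGroup (Fin 2) F

section

variable {I W : Type*} [Fintype I] [DecidableEq I] [Group W] {Y : Type*} [Group Y] {M : CoxeterMatrix I}
  {cs : CoxeterSystem M W} {A : I → I → ℤ} {h : IsCartan M A} {T : Subgroup Y} {n : I → Y}
  {X : (I → ℤ) → Subgroup Y}

/-- **a node of the adjoint group** -/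
theorem nd_emb {D : Subgroup (MulAut Y)} (hinj : Function.Injective (emb D)) (tor : ∀ t ∈ T, MulAut.conj t ∈ D)
    {i : I} {F : Type*} [Field F] {ψ : (SL2 F) →* Y} (N : Nd cs h T n X i ψ) :
    Nd cs h (Tad D) (fun i => emb D (n i)) (Xad X D) i ((emb D).comp ψ) where
  mem_X g := by
    rw [Xad_eq]
    constructor
    · rintro ⟨y, hy, rfl⟩
      obtain ⟨a, rfl⟩ := (N.mem_X y).1 hy
      exact ⟨a, rfl⟩
    · rintro ⟨a, rfl⟩
      exact ⟨_, (N.mem_X _).2 ⟨a, rfl⟩, rfl⟩
  w1 := congrArg (emb D) N.w1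
  h1 d hd := tor _ (N.h1 d hd)
  inj_up a b hab := N.inj_up a b (hinj hab)

/-- `|X_i| = |F|` -/
theorem card_X {i : I} {F : Type*} [Field F] {ψ : (SL2 F) →* Y} (N : Nd cs h T n X i ψ) :
    Nat.card (X (sr i)) = Nat.card F := by
  refine (Nat.card_congr (Equiv.ofBijective (fun a : F => (⟨ψ (up a), (N.mem_X _).2 ⟨a, rfl⟩⟩ : X (sr i))) ⟨?_, ?_⟩)).symm
  · intro a b hab
    exact N.inj_up a b (congrArg Subtype.val hab)
  · rintro ⟨g, hg⟩
    obtain ⟨a, rfl⟩ := (N.mem_X g).1 hg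
    exact ⟨a, rfl⟩

theorem card_Xad {D : Subgroup (MulAut Y)} (hinj : Function.Injective (emb D)) (z : I → ℤ) :
    Nat.card (Xad X D z) = Nat.card (X z) := by
  rw [Xad_eq]
  exact Nat.card_congr ((X z).equivMapOfInjective (emb D) hinj).symm.toEquiv

end

/-- the number of neighbours -/
def deg {I : Type*} [Fintype I] [DecidableEq I] (M : I → I → ℕ) (i : I) : ℕ := (Finset.univ.filter fun j => M i j = 3).card

theorem deg_perm {I : Type*} [Fintype I] [DecidableEq I] {M : I → I → ℕ} {σ : Equiv.Perm I}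
    (h : ∀ j k, M (σ j) (σ k) = M j k) (i : I) : deg M (σ i) = deg M i := by
  unfold deg
  symm
  refine Finset.card_bij (fun j _ => σ j) ?_ (fun a _ b _ hab => σ.injective hab) ?_
  · intro j hj
    rw [Finset.mem_filter] at hj ⊢
    exact ⟨Finset.mem_univ _, (h i j).trans hj.2⟩
  · intro j hj
    rw [Finset.mem_filter] at hj
    refine ⟨σ.symm j, ?_, σ.apply_symm_apply j⟩
    rw [Finset.mem_filter]
    refine ⟨Finset.mem_univ _, ?_⟩
    rw [← h, σ.apply_symm_apply]
    exact hj.2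

theorem fix_of_deg {I : Type*} [Fintype I] [DecidableEq I] {M : I → I → ℕ} {i : I} (hi : deg M i = 3)
    (hu : ∀ j, deg M j = 3 → j = i) {σ : Equiv.Perm I} (h : ∀ j k, M (σ j) (σ k) = M j k) : σ i = i :=
  hu _ ((deg_perm h i).trans hi)

end Cfsg.Agent.H644.R2
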